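import Cfsg.Agent.H35.Fi24T.Y5V4.RTab0

set_option autoImplicit false
set_option linter.all false

namespace Cfsg.Agent.H35

open Cfsg.Spor

noncomputable def y5v4_rrowT : ℕ → ℕ := y5v4_rrowT_c0

noncomputable def y5v4_circT_c0 : ℕ → List Fi24.Gen := (nd 20 (nd 10 (nd 5 (nd 2 (nd 1 (lf [.l]) (lf [.k])) (nd 3 (lf [.a]) (nd 4 (lf [.g]) (lf [.j])))) (nd 7 (nd 6 (lf [.i]) (lf [.d, .b, .d, .b])) (nd 8 (lf [.e, .b, .e, .b]) (nd 9 (lf [.f, .b, .f, .b]) (lf [.h, .b, .h, .b]))))) (nd 15 (nd 12 (nd 11 (lf [.b, .c, .b, .c, .b, .c]) (lf [.e, .c, .e, .c])) (nd 13 (lf [.f, .c, .f, .c]) (nd 14 (lf [.h, .c, .h, .c]) (lf [.b, .d, .b, .d])))) (nd 17 (nd 16 (lf [.c, .d, .c, .d, .c, .d]) (lf [.f, .d, .f, .d])) (nd 18 (lf [.b, .e, .b, .e]) (nd 19 (lf [.c, .e, .c, .e]) (lf [.d, .e, .d, .e, .d, .e])))))) (nd 30 (nd 25 (nd 22 (nd 21 (lf [.b, .h, .b, .h]) (lf [.c, .h, .c, .h])) (nd 23 (lf [.d,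 .h, .d, .h, .d, .h]) (nd 24 (lf [.f, .h, .f, .h]) (lf [.b, .f, .b, .f])))) (nd 27 (nd 26 (lf [.c, .f, .c, .f]) (lf [.d, .f, .d, .f])) (nd 28 (lf [.e, .f, .e, .f, .e, .f]) (nd 29 (lf [.e, .h, .e, .h]) (lf [.e, .e]))))) (nd 35 (nd 32 (nd 31 (lf [.f, .f]) (lf [.e, .d, .e, .d, .e, .d])) (nd 33 (lf [.h, .d, .h, .d, .h, .d]) (nd 34 (lf [.d, .c, .d, .c, .d, .c]) (lf [.f, .e, .f, .e, .f, .e])))) (nd 37 (nd 36 (lf [.h, .e, .h, .e]) (lf [.c, .b, .c, .b, .c, .b])) (nd 38 (lf [.c, .c]) (nd 39 (lf [.b, .b]) (lf [.h, .f, .h, .f])))))))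
noncomputable def y5v4_circT : ℕ → List Fi24.Gen := y5v4_circT_c0
def y5v4_ccert : List (ℕ × ℕ × Bool) := [(36, 0, false), (37, 0, false), (38, 0, false), (39, 0, false), (40, 0, false), (41, 0, false), (2, 1, false), (3, 1, false), (4, 1, false), (5, 1, false), (1, 0, false), (9, 1, false), (10, 1, false), (11, 1, false), (2, 0, false), (8, 0, false), (16, 1, false), (3, 0, false), (9, 0, false), (15, 0, false), (5, 0, false), (11, 0, false), (17, 0, false), (29, 0, false), (4, 0, false), (10, 0, false), (16, 0, false), (22, 0, false), (23, 0, false), (21, 0, false), (28, 0, false), (15, 1, false), (17, 1, false), (8, 1, false), (22, 1, false), (23, 1, false), (1, 1, false), (7, 0, false), (0, 0, false), (29, 1, false)]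
noncomputable def y5v4_hc1T_c0 : ℕ → List Fi24.Gen := (nd 2 (nd 1 (lf [.c]) (lf [.d])) (nd 3 (lf [.e]) (nd 4 (lf [.f]) (lf [.h]))))
noncomputable def y5v4_hc1T : ℕ → List Fi24.Gen := y5v4_hc1T_c0
noncomputable def y5v4_hc2T_c0 : ℕ → List Fi24.Gen := (nd 2 (nd 1 (lf []) (lf [])) (nd 3 (lf []) (nd 4 (lf []) (lf []))))
noncomputable def y5v4_hc2T : ℕ → List Fi24.Gen := y5v4_hc2T_c0

noncomputable def y5v4_rd : RData Fi24.Gen := ⟨wrapRow 27 y5v4_rrowT, 27, 27, fi24_gi, fi24_gof, fi24_gens, circTab 40 y5v4_circT, circTab 5 y5v4_hc1T, circTab 5 y5v4_hc2T, 1⟩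
noncomputable def y5v4_rf (p : ℕ) : Bool := y5v4_rd.chk p
def y5v4_rsw : List (List Fi24.Gen) := [[.c], [.d], [.e], [.f], [.h]]

end Cfsg.Agent.H35
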